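import Cfsg.Agent.J4Cover26.Words

/-! Identities checked in the representation. -/

set_option autoImplicit false
set_option maxRecDepth 100000

namespace CfsgLib.J4Cover26

open CfsgLib.J4M24

theorem jM2 : jEq (wM ++ wM, []) = true := by decide +kernel

theorem jLink : jEq ((List.replicate 3 (Tab.pw ++ [4])).flatten, conjW Tab.cU wM) = true := by
  decide +kernel

theorem jSq1 : jEq (wM ++ Tab.sq1, Tab.sq1 ++ wM) = true := by decide +kernel

theorem jSq2 : jEq (wM ++ Tab.sq2, Tab.sq2 ++ wM) = true := by decide +kernel

end CfsgLib.J4Cover26
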