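import Cfsg.Agent.J4Cover26.Words

/-! Identities checked in the representation. -/

set_option autoImplicit false
set_option maxRecDepth 100000

namespace CfsgLib.J4Cover26

open CfsgLib.J4M24

theorem jSplit : jEq (Tab.cI ++ wSl ++ wInv Tab.cI,
    conjW Tab.cR wM ++ conjW Tab.gR (conjW Tab.cR wM)) = true := by decide +kernel

theorem jR : jEq (wM ++ conjW Tab.cR wM, conjW Tab.cR wM ++ wM) = true := by decide +kernel

theorem jG : jEq (wM ++ Tab.gR, Tab.gR ++ wM) = true := by decide +kernel

end CfsgLib.J4Cover26
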