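import Cfsg.Agent.J4Cover26.Words

/-! Identities checked in the representation. -/

set_option autoImplicit false
set_option maxRecDepth 100000

namespace CfsgLib.J4Cover26

open CfsgLib.J4M24

theorem jDihedral : jEq ((List.replicate 11 (wQ ++ wP)).flatten, []) = true := by decide +kernel

end CfsgLib.J4Cover26
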