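import Mathlib.Data.List.Basic

/-! Words for the triviality of the Schur multiplier of the fourth Janko group. -/

set_option autoImplicit false

namespace CfsgLib.J4Cover26.Tab

/-- the conjugator in the word for the sextet element -/
def gM : List ℕ := [2, 0, 2, 0, 2, 0, 2, 0, 3, 0]

/-- conjugator of the linking element -/
def cU : List ℕ := [0, 2, 0, 3, 0, 2, 0, 3, 0, 2, 0, 2, 0, 2]

/-- conjugator of the moved sextet -/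
def cI : List ℕ := [0, 2, 0, 3]

/-- conjugator of the fixed sextet -/
def cF : List ℕ := [0, 2, 0, 3, 0, 2, 0]

/-- conjugator of the auxiliary sextet -/
def cR : List ℕ := [0, 3, 0, 2, 0, 3, 0, 3, 0, 2, 0, 3, 0, 2, 0, 2, 0, 3, 0, 3]

/-- element fixing the sextet element -/
def gR : List ℕ := [0, 2, 0, 2, 0, 2, 0, 2, 0, 2, 0, 2, 0, 2, 0, 3, 0, 2, 0, 2, 0, 3, 0, 3, 0, 3, 0]

/-- first square root -/
def sq1 : List ℕ := [3, 0, 2, 0, 3, 0, 2, 0, 3, 0, 2, 0, 2, 0, 2, 0, 3, 0, 3, 0, 3, 0, 2, 0, 3, 0, 2, 0, 3, 0]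

/-- second square root -/
def sq2 : List ℕ := [3, 0, 2, 0, 2, 0, 2, 0, 3, 0, 3, 0, 2, 0, 3, 0, 3, 0, 3, 0, 3, 0, 3, 0, 3, 0, 3, 0]

/-- square root at the fixed sextet -/
def sqF : List ℕ := [0, 3, 0, 2, 0, 2, 0, 2, 0, 2, 0, 2, 0, 2, 0, 3, 0, 2, 0, 2, 0, 2, 0, 3, 0, 2, 0, 3, 0, 3, 0, 2, 0, 2, 0, 3, 0, 3, 0, 2, 0, 2, 0, 3, 0, 3, 0, 2, 0, 3, 0]

/-- the element linking the sign to the sextets -/
def pw : List ℕ := [3, 0, 2, 0, 2, 0, 2, 0, 3, 0, 3, 0, 3, 0, 2, 0, 3, 0, 2, 0, 2, 0, 2, 0, 3, 0, 3, 0, 3, 0, 2, 0, 3, 0, 2, 0, 2, 0, 2, 0, 3, 0, 3, 0, 3, 0, 2, 0, 3, 0, 2, 0, 2, 0, 2, 0, 3, 0, 3, 0, 3, 0, 2, 0, 3, 2]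

/-- conjugator of the first generator -/
def cX : List ℕ := [2, 0, 3]

/-- odd element centralising `pw` -/
def k0K : List ℕ := [0, 2, 0, 1, 0, 2, 0, 2, 0, 1, 1, 0, 2, 0, 1, 0, 2, 0, 2]

/-- the long element of the last relator -/
def aK : List ℕ := [0, 1, 1, 0, 1, 1, 0, 2, 0, 1, 0, 2, 0, 2, 0, 2, 0, 2, 0, 2, 0, 1, 0]

/-- element inverting the long element -/
def kAK : List ℕ := [0, 2, 0, 1, 0, 1, 1, 0, 2, 0, 1, 0]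

/-- its conjugate -/
def kHK : List ℕ := [0, 1, 0, 2, 0, 1, 0, 2, 0, 1, 1, 0, 1, 0, 1, 1]

/-- a short word for the odd element of the centraliser -/
def ks : List ℕ := [0, 2, 0, 2, 0, 3, 0, 3, 0, 2, 0, 3, 0, 3, 0, 2, 0, 3, 0, 2, 0, 2, 0, 3, 0, 2, 0, 2, 0, 2, 0, 3, 0, 3, 0, 2, 0, 3, 0, 3, 0, 3, 0, 2, 0, 3, 0, 2, 0, 3, 0, 2, 0, 2, 0]

end CfsgLib.J4Cover26.Tab
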