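import Cfsg.Agent.J4Cover26.Words

/-! The twelve relators of the fourth Janko group as words. -/

set_option autoImplicit false
set_option maxRecDepth 100000

namespace CfsgLib.J4Cover26

open CfsgLib.J4M24

/-- the five relators involving the last generator -/
def tRels : List (List ℕ) :=
  [[4, 4], [5] ++ wInv wW ++ [4] ++ wW, [5, 1, 4, 0],
    (List.replicate 3 ([2] ++ conjW wG [4])).flatten, wQ ++ wQ]

theorem words_eq : J4Rep112.words = J4M24.Tab.relWords ++ tRels := by decide +kernel

theorem wM_eq : wM = (List.replicate 3 ([2] ++ conjW Tab.gM [4])).flatten := rfl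

end CfsgLib.J4Cover26
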