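import Cfsg.Agent.J4Cover26.Pairing
import Cfsg.Agent.J4Cover26.Checks1
import Cfsg.Agent.J4Cover26.Checks2
import Cfsg.Agent.J4Cover26.Checks3
import Cfsg.Agent.J4Cover26.Checks4
import Cfsg.Agent.J4Cover26.Relators

/-!
Every lift of the last generator of the fourth Janko group to a central extension commutes with the
lifts of its centraliser in the Mathieu group.
-/

set_option autoImplicit false
set_option maxRecDepth 100000

namespace CfsgLib.J4Cover26

open Cfsg CfsgLib.CosetEnum CfsgLib.J4M24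

theorem gword_one {G : Type*} [Group G] (g : ℕ → G) (c : ℕ) : gword g [c] = g c := by
  rw [gword_cons, gword_nil, mul_one]

theorem gword_rep {G : Type*} [Group G] (g : ℕ → G) (w : List ℕ) :
    ∀ n : ℕ, gword g (List.replicate n w).flatten = gword g w ^ n
  | 0 => by rw [List.replicate_zero, List.flatten_nil, gword_nil, pow_zero]
  | n + 1 => by
    rw [List.replicate_succ, List.flatten_cons, gword_append, gword_rep g w n, pow_succ']

theorem gword_conjW {G : Type*} [Group G] (X Y T : G) (g w : List ℕ) :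
    gword (lv X Y T) (conjW g w) =
      (gword (lv X Y T) g)⁻¹ * gword (lv X Y T) w * gword (lv X Y T) g := by
  rw [conjW, gword_append, gword_append, gword_wInv _ (lv_iv X Y T)]

theorem kexp_cons (c : ℕ) (l : List ℕ) :
    kexp (c :: l) = (if c = 0 then [0] else if c = 1 then wW else wInv wW) ++ kexp l := rfl

/-- the relator words hold in the presented group -/
theorem gword_jl_rel {w : List ℕ} (hw : w ∈ J4M24.Tab.relWords ++ tRels) :
    gword jl w = 1 := by
  rw [← words_eq] at hw
  refine gword_relWord Spor.J4.extra (Spor.coxRelators Spor.J4.edges ∪ {r | r ∈ Spor.J4.extra})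
    (by rw [J4Rep112.edges_empty, Set.empty_union]) J4Rep112.enc J4Rep112.iv
    (MonoidHom.id Spor.J4) jl ?_ ?_ w hw
  · intro a; cases a <;> rfl
  · intro a; cases a <;> rfl

variable {Γ : Type*} [Group Γ]

/-- the values of the words in a lift -/
theorem map_ev (σ : Γ →* Spor.J4) {X Y T : Γ}
    (hX : σ X = PresentedGroup.of Spor.J4.Gen.x) (hY : σ Y = PresentedGroup.of Spor.J4.Gen.y)
    (hT : σ T = PresentedGroup.of Spor.J4.Gen.t) (w : List ℕ) :
    σ (gword (lv X Y T) w) = gword jl w := by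
  rw [map_gword_lv, hX, hY, hT]
  rfl

theorem ev_low (s : P →* Γ) {X Y : Γ} (hX : X = s px) (hY : Y = s py) (T : Γ) {w : List ℕ}
    (h : ∀ c ∈ w, c < 4) : gword (lv X Y T) w = s (gword gl w) := by
  rw [gl, map_gword_lets]
  refine gword_congr _ _ fun c hc => ?_
  have hc4 := h c hc
  interval_cases c <;> simp [lv, lets, signedVal, hX, hY]

theorem ev_pair (s : P →* Γ) {X Y : Γ} (hX : X = s px) (hY : Y = s py) (T : Γ)
    {p : List ℕ × List ℕ} (hp : p ∈ pList) :
    gword (lv X Y T) p.1 = gword (lv X Y T) p.2 := by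
  have hok := List.all_eq_true.1 pList_ok p hp
  have h := hok
  simp only [pEq, Bool.and_eq_true, List.all_eq_true, Nat.blt, Nat.ble_eq, beq_iff_eq] at h
  rw [ev_low s hX hY T h.1.1, ev_low s hX hY T h.1.2, gword_gl_eq hok]

theorem ev_rel (s : P →* Γ) {X Y : Γ} (hX : X = s px) (hY : Y = s py) (T : Γ) {w : List ℕ}
    (hw : w ∈ J4M24.Tab.relWords) : gword (lv X Y T) w = 1 := by
  have h : (J4M24.Tab.relWords.all fun w => w.all fun c => c.blt 4) = true := by decide +kernel
  have hlo := List.all_eq_true.1 h w hw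
  simp only [List.all_eq_true, Nat.blt, Nat.ble_eq] at hlo
  rw [ev_low s hX hY T hlo, gword_rel hw, map_one]

/-- a lift of the last generator moves the words of its centraliser by powers of one factor -/
theorem conj_kexp {X Y T a : Γ} (ha : a ∈ Subgroup.center Γ) (h2 : a * a = 1)
    (hX : T * X * T⁻¹ = a * X)
    (hW : T * gword (lv X Y T) wW * T⁻¹ = a * gword (lv X Y T) wW) :
    ∀ l : List ℕ, T * gword (lv X Y T) (kexp l) * T⁻¹ =
      a ^ l.length * gword (lv X Y T) (kexp l)
  | [] => by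
    show T * gword (lv X Y T) [] * T⁻¹ = _
    simp [gword_nil, kexp]
  | c :: l => by
    have hseg : T * gword (lv X Y T) (if c = 0 then [0] else if c = 1 then wW else wInv wW) * T⁻¹ =
        a * gword (lv X Y T) (if c = 0 then [0] else if c = 1 then wW else wInv wW) := by
      split_ifs
      · rw [gword_one]; exact hX
      · exact hW
      · rw [gword_wInv _ (lv_iv X Y T)]
        calc T * (gword (lv X Y T) wW)⁻¹ * T⁻¹ = (T * gword (lv X Y T) wW * T⁻¹)⁻¹ := by group
          _ = (gword (lv X Y T) wW)⁻¹ * a⁻¹ := by rw [hW, mul_inv_rev]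
          _ = a * (gword (lv X Y T) wW)⁻¹ := by
            rw [← center_comm (Subgroup.inv_mem _ ha), inv_eq_of_mul_eq_one_right h2]
    rw [kexp_cons, gword_append]
    set u := gword (lv X Y T) (if c = 0 then [0] else if c = 1 then wW else wInv wW)
    set r := gword (lv X Y T) (kexp l)
    have ih : T * r * T⁻¹ = a ^ l.length * r := conj_kexp ha h2 hX hW l
    calc T * (u * r) * T⁻¹ = (T * u * T⁻¹) * (T * r * T⁻¹) := by group
      _ = a * u * (a ^ l.length * r) := by rw [hseg, ih]
      _ = a * (u * a ^ l.length) * r := by group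
      _ = a * (a ^ l.length * u) * r := by
        rw [center_comm (Subgroup.pow_mem _ ha _) u]
      _ = a ^ (c :: l).length * (u * r) := by
        rw [List.length_cons, pow_succ']; group

/-- the moving factor is trivial: every lift of `t` commutes with the lifts of its centraliser -/
theorem lift_commute (hinj : Function.Injective J4Rep112.rep) (σ : Γ →* Spor.J4)
    (hc : σ.ker ≤ Subgroup.center Γ) (s : P →* Γ) {X Y T : Γ} (hXs : X = s px) (hYs : Y = s py)
    (hX : σ X = PresentedGroup.of Spor.J4.Gen.x) (hY : σ Y = PresentedGroup.of Spor.J4.Gen.y)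
    (hT : σ T = PresentedGroup.of Spor.J4.Gen.t) :
    Commute T X ∧ Commute T (gword (lv X Y T) wW) := by
  set e := gword (lv X Y T) with he
  have he1 : ∀ c, e [c] = lv X Y T c := gword_one _
  have hea : ∀ u v, e (u ++ v) = e u * e v := gword_append _
  have hei : ∀ u, e (wInv u) = (e u)⁻¹ := gword_wInv _ (lv_iv X Y T)
  have hec : ∀ g u, e (conjW g u) = (e g)⁻¹ * e u * e g := gword_conjW X Y T
  have hσ : ∀ u, σ (e u) = gword jl u := map_ev σ hX hY hT
  have hJ : ∀ {p : List ℕ × List ℕ}, jEq p = true → σ (e p.1) = σ (e p.2) := fun h => by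
    rw [hσ, hσ, gword_jl_eq hinj h]
  have hR : ∀ {w : List ℕ}, w ∈ J4M24.Tab.relWords ++ tRels → σ (e w) = 1 := fun h => by
    rw [hσ, gword_jl_rel h]
  have hP : ∀ {p : List ℕ × List ℕ}, p ∈ pList → e p.1 = e p.2 := fun h => ev_pair s hXs hYs T h
  have hT2 : σ T * σ T = 1 := by
    rw [← map_mul]
    have : e [4, 4] = T * T := by rw [show [4, 4] = [4] ++ [4] from rfl, hea, he1]; rfl
    rw [← this]; exact hR (by simp [tRels])
  have hcX : Commute (σ T) (σ X) := by
    have e1 : e [5, 1, 4, 0] = T⁻¹ * X⁻¹ * T * X := by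
      rw [show [5, 1, 4, 0] = [5] ++ [1] ++ [4] ++ [0] from rfl, hea, hea, hea, he1, he1, he1, he1]
      rfl
    have h := hR (w := [5, 1, 4, 0]) (by simp [tRels])
    rw [e1] at h
    have h' : σ (X * T) * σ (T⁻¹ * X⁻¹ * T * X) = σ (T * X) := by
      rw [← map_mul]; congr 1; group
    rw [h, mul_one, map_mul, map_mul] at h'
    exact h'.symm
  have hcW : Commute (σ T) (σ (e wW)) := by
    have h := hR (w := [5] ++ wInv wW ++ [4] ++ wW) (by simp [tRels])
    rw [hea, hea, hea, hei, he1, he1] at h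
    have h' : σ (e wW * T) * σ (T⁻¹ * (e wW)⁻¹ * T * e wW) = σ (T * e wW) := by
      rw [← map_mul]; congr 1; group
    change σ (T⁻¹ * (e wW)⁻¹ * T * e wW) = 1 at h
    rw [h, mul_one, map_mul, map_mul] at h'
    exact h'.symm
  obtain ⟨a, ha, hTX⟩ := exists_conj_eq hc hcX
  obtain ⟨b, hb, hTW⟩ := exists_conj_eq hc hcW
  have ha2 : a * a = 1 := conj_factor_sq hc hT2 ha hTX
  have hb2 : b * b = 1 := conj_factor_sq hc hT2 hb hTW
  -- the two factors agree, by the order of `x w`
  have hab : b = a := by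
    have h21 : (X * e wW) ^ 21 = 1 := by
      have h := hP (p := ((List.replicate 21 ([0] ++ wW)).flatten, [])) (by simp [pList])
      rw [he, gword_rep, gword_append, gword_one, gword_nil] at h
      exact h
    have hxw : T * (X * e wW) * T⁻¹ = (a * b) * (X * e wW) := by
      calc T * (X * e wW) * T⁻¹ = (T * X * T⁻¹) * (T * e wW * T⁻¹) := by group
        _ = a * X * (b * e wW) := by rw [hTX, hTW]
        _ = a * (X * b) * e wW := by group
        _ = a * (b * X) * e wW := by rw [center_comm hb X]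
        _ = (a * b) * (X * e wW) := by group
    have hab2 : (a * b) ^ 2 = 1 := by
      rw [Commute.mul_pow (center_comm ha b : Commute a b), pow_two, pow_two, ha2, hb2, one_mul]
    have h : (a * b) ^ 21 = 1 := by
      have := congrArg (· ^ 21) hxw
      simp only [conj_pow] at this
      rw [Commute.mul_pow (center_comm (Subgroup.mul_mem _ ha hb) _ : Commute (a * b) (X * e wW)), h21,
        mul_one, mul_one, mul_inv_cancel] at this
      exact this.symm
    rw [show 21 = 2 * 10 + 1 from rfl, pow_succ, pow_mul, hab2, one_pow, one_mul] at h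
    rw [eq_inv_of_mul_eq_one_right h, inv_eq_of_mul_eq_one_right ha2]
  subst b
  suffices ha1 : a = 1 by
    rw [ha1, one_mul] at hTX hTW
    exact ⟨mul_inv_eq_iff_eq_mul.1 hTX, mul_inv_eq_iff_eq_mul.1 hTW⟩
  -- transport the factor to the sextet element
  set M := e wM with hMdef
  have hM2 : σ M * σ M = 1 := by
    have h := hJ jM2
    rw [hea, map_mul] at h
    rw [h, he, gword_nil, map_one]
  set k₀ := e (kexp Tab.k0K) with hk₀
  set π := e Tab.pw with hπ
  set G := e Tab.cU with hG
  have hπk : π * k₀ = k₀ * π := by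
    have h := hP (p := (Tab.pw ++ kexp Tab.k0K, kexp Tab.k0K ++ Tab.pw)) (by simp [pList])
    rwa [hea, hea] at h
  have hTk : T * k₀ * T⁻¹ = a * k₀ := by
    rw [hk₀, he, conj_kexp ha ha2 hTX hTW,
      show Tab.k0K.length = 2 * 9 + 1 from rfl, pow_succ, pow_mul, pow_two, ha2, one_pow, one_mul]
  have hv : (π * T) * k₀ * (π * T)⁻¹ = a * k₀ := by
    calc (π * T) * k₀ * (π * T)⁻¹ = π * (T * k₀ * T⁻¹) * π⁻¹ := by group
      _ = (π * a) * k₀ * π⁻¹ := by rw [hTk]; group
      _ = (a * π) * k₀ * π⁻¹ := by rw [center_comm ha π]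
      _ = a * (π * k₀) * π⁻¹ := by group
      _ = a * k₀ := by rw [hπk]; group
  have hv3 : (π * T) ^ 3 * k₀ * ((π * T) ^ 3)⁻¹ = a * k₀ := by
    set v := π * T
    have step : ∀ c ∈ Subgroup.center Γ, v * (c * k₀) * v⁻¹ = c * (a * k₀) := fun c hc' => by
      calc v * (c * k₀) * v⁻¹ = (v * c) * k₀ * v⁻¹ := by group
        _ = (c * v) * k₀ * v⁻¹ := by rw [center_comm hc' v]
        _ = c * (v * k₀ * v⁻¹) := by group
        _ = c * (a * k₀) := by rw [hv]
    calc v ^ 3 * k₀ * (v ^ 3)⁻¹ = v * (v * (v * k₀ * v⁻¹) * v⁻¹) * v⁻¹ := by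
          rw [pow_three]; group
      _ = v * (a * (a * k₀)) * v⁻¹ := by rw [hv, step a ha]
      _ = a * a * (a * k₀) := by rw [← mul_assoc a a k₀, step _ (Subgroup.mul_mem _ ha ha)]
      _ = a * k₀ := by rw [ha2, one_mul]
  have hu : σ ((π * T) ^ 3) = σ (G⁻¹ * M * G) := by
    have h := hJ jLink
    rw [he, gword_rep, gword_append, gword_one, gword_conjW] at h
    exact h
  obtain ⟨z, hz, hzu⟩ := eq_central_mul hc hu
  have hu' : (G⁻¹ * M * G) * k₀ * (G⁻¹ * M * G)⁻¹ = a * k₀ := by
    rw [← hv3, hzu]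
    set q := G⁻¹ * M * G
    calc q * k₀ * q⁻¹ = z * (q * k₀ * q⁻¹) * z⁻¹ := by
          rw [center_comm hz, mul_inv_cancel_right]
      _ = z * q * k₀ * (z * q)⁻¹ := by group
  have hMk' : M * (G * k₀ * G⁻¹) * M⁻¹ = a * (G * k₀ * G⁻¹) := by
    calc M * (G * k₀ * G⁻¹) * M⁻¹ = G * ((G⁻¹ * M * G) * k₀ * (G⁻¹ * M * G)⁻¹) * G⁻¹ := by group
      _ = (G * a) * k₀ * G⁻¹ := by rw [hu']; group
      _ = (a * G) * k₀ * G⁻¹ := by rw [center_comm ha G]
      _ = a * (G * k₀ * G⁻¹) := by group
  have hsq : ∀ {r : List ℕ}, jEq (wM ++ r, r ++ wM) = true → Commute M (e r * e r) := fun h =>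
    commute_sq hc hM2 (by
      have h' := hJ h
      rw [hea, hea, map_mul, map_mul] at h'
      exact h')
  set k := e Tab.ks with hkdef
  have hMk : M * k * M⁻¹ = a * k := by
    have hk : k = G * k₀ * G⁻¹ * (e Tab.sq1 * e Tab.sq1) * (e Tab.sq2 * e Tab.sq2) := by
      have h := hP (p := (wK, Tab.ks)) (by simp [pList])
      rw [wK, hea, hea, hea, hea, hea, hea, hei] at h
      exact h.symm
    have c1 := hsq jSq1
    have c2 := hsq jSq2
    rw [hk]
    set A₁ := e Tab.sq1 * e Tab.sq1
    set A₂ := e Tab.sq2 * e Tab.sq2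
    calc M * (G * k₀ * G⁻¹ * A₁ * A₂) * M⁻¹
        = (M * (G * k₀ * G⁻¹) * M⁻¹) * ((M * A₁) * M⁻¹) * ((M * A₂) * M⁻¹) := by group
      _ = a * (G * k₀ * G⁻¹) * A₁ * A₂ := by
          rw [hMk', c1.eq, c2.eq, mul_inv_cancel_right, mul_inv_cancel_right]
      _ = a * (G * k₀ * G⁻¹ * A₁ * A₂) := by group
  have hk2 : k * k = 1 := by
    have h := hP (p := (Tab.ks ++ Tab.ks, [])) (by simp [pList])
    rw [hea, he, gword_nil] at h
    exact h
  have hkinv : k⁻¹ = k := inv_eq_of_mul_eq_one_right hk2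
  set Sf := e (conjW Tab.cF wM) with hSf
  set Si := e (conjW Tab.cI wM) with hSi
  have hkSf : Commute k Sf := by
    have h := hP (p := (Tab.ks, conjW Tab.cF (Tab.sqF ++ Tab.sqF))) (by simp [pList])
    rw [hec, hea] at h
    have c := hsq jSqF
    rw [hSf, hec]
    show k * _ = _ * k
    rw [hkdef, h]
    set F := e Tab.cF
    set f := e Tab.sqF * e Tab.sqF
    calc F⁻¹ * f * F * (F⁻¹ * M * F) = F⁻¹ * (f * M) * F := by group
      _ = F⁻¹ * (M * f) * F := by rw [c.eq]
      _ = F⁻¹ * M * F * (F⁻¹ * f * F) := by group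
  have hkMk : k * M * k⁻¹ = a * M := by
    have h1 : M * k = a * k * M := mul_inv_eq_iff_eq_mul.1 hMk
    calc k * M * k⁻¹ = a * (a * k * M) * k⁻¹ := by
          rw [← mul_assoc a (a * k) M, ← mul_assoc a a k, ha2, one_mul]
      _ = a * M := by rw [← h1]; group
  have hSl : e wSl = k * Si * k⁻¹ := by rw [wSl, hea, hea, hei]
  set Sl := e wSl with hSldef
  obtain ⟨z₁, hz₁, h4⟩ := eq_central_mul hc (show σ (Si * Sl) = σ (Sf * M) by
    have h := hJ jFour
    rwa [hea, hea] at h)
  have hswap : Sl * Si = a * (Si * Sl) := by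
    calc Sl * Si = k * (Si * Sl) * k⁻¹ := by
          rw [hSl]
          have hkk : k⁻¹ * k⁻¹ = 1 := by rw [← mul_inv_rev, hk2, inv_one]
          calc k * Si * k⁻¹ * Si = k * Si * k⁻¹ * Si * 1 := (mul_one _).symm
            _ = k * Si * (k * Si) * (k⁻¹ * k⁻¹) := by rw [hkk, hkinv]; group
            _ = k * (Si * (k * Si * k⁻¹)) * k⁻¹ := by group
      _ = (k * z₁) * Sf * M * k⁻¹ := by rw [h4]; group
      _ = z₁ * (k * Sf) * M * k⁻¹ := by rw [← center_comm hz₁ k]; group
      _ = z₁ * (Sf * k) * M * k⁻¹ := by rw [hkSf.eq]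
      _ = z₁ * Sf * (k * M * k⁻¹) := by group
      _ = z₁ * (Sf * a) * M := by rw [hkMk]; group
      _ = z₁ * (a * Sf) * M := by rw [center_comm ha Sf]
      _ = (z₁ * a) * (Sf * M) := by group
      _ = a * (z₁ * (Sf * M)) := by rw [center_comm hz₁ a]; group
      _ = a * (Si * Sl) := by rw [h4]
  have hcomm : Commute Si Sl := by
    set I := e Tab.cI with hI
    set R := e (conjW Tab.cR wM)
    set g := e Tab.gR
    obtain ⟨z₂, hz₂, h5⟩ := eq_central_mul hc (show σ (I * Sl * I⁻¹) = σ (R * (g⁻¹ * R * g)) by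
      have h := hJ jSplit
      rwa [hea, hea, hea, hei, hec Tab.gR] at h)
    have hc3 : ∀ {r : List ℕ}, jEq (wM ++ r, r ++ wM) = true → Commute (σ M) (σ (e r)) :=
      fun h => by
        have h' := hJ h
        rw [hea, hea, map_mul, map_mul] at h'
        exact h'
    have hcR : Commute M (I * Sl * I⁻¹) := by
      rw [h5]
      exact Commute.mul_right (center_comm hz₂ M : Commute z₂ M).symm
        (commute_mul_conj hc hM2 (hc3 jR) (hc3 jG))
    rw [hSi, hec]
    show _ * Sl = Sl * _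
    calc I⁻¹ * M * I * Sl = I⁻¹ * (M * (I * Sl * I⁻¹)) * I := by group
      _ = I⁻¹ * (I * Sl * I⁻¹ * M) * I := by rw [hcR.eq]
      _ = Sl * (I⁻¹ * M * I) := by group
  rw [← hcomm.eq] at hswap
  exact mul_eq_right.1 hswap.symm

end CfsgLib.J4Cover26
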