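import Cfsg.Agent.J4Cover26.Lift

/-!
Every finite stem extension of the presented fourth Janko group is trivial.
-/

set_option autoImplicit false
set_option maxRecDepth 100000

namespace CfsgLib.J4Cover26

open Cfsg CfsgLib.CosetEnum CfsgLib.J4M24

/-- the values of a word in the letters of `x, y` do not depend on the lift of `t` -/
theorem ev_low_indep {Γ : Type*} [Group Γ] (X Y T T' : Γ) {w : List ℕ}
    (h : ∀ c ∈ w, c < 4) : gword (lv X Y T) w = gword (lv X Y T') w := by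
  refine gword_congr _ _ fun c hc => ?_
  have hc4 := h c hc
  interval_cases c <;> simp [lv, signedVal]

/-- a lift of the last generator can be chosen with both short relations -/
theorem exists_good_lift {Γ : Type*} [Group Γ] (hinj : Function.Injective J4Rep112.rep)
    (σ : Γ →* Spor.J4)
    (hc : σ.ker ≤ Subgroup.center Γ) (s : P →* Γ) {X Y : Γ} (hXs : X = s px) (hYs : Y = s py)
    (hX : σ X = PresentedGroup.of Spor.J4.Gen.x) (hY : σ Y = PresentedGroup.of Spor.J4.Gen.y)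
    {T₀ : Γ} (hT : σ T₀ = PresentedGroup.of Spor.J4.Gen.t) :
    ∃ T : Γ, σ T = PresentedGroup.of Spor.J4.Gen.t ∧ T * T = 1 ∧
      (Y * gword (lv X Y T) (conjW wG [4])) ^ 3 = 1 := by
  obtain ⟨-, hTW⟩ := lift_commute hinj σ hc s hXs hYs hX hY hT
  set e := gword (lv X Y T₀) with he
  have hea : ∀ u v, e (u ++ v) = e u * e v := gword_append _
  have hei : ∀ u, e (wInv u) = (e u)⁻¹ := gword_wInv _ (lv_iv X Y T₀)
  have hec : ∀ g u, e (conjW g u) = (e g)⁻¹ * e u * e g := gword_conjW X Y T₀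
  set c := T₀ * T₀ with hcdef
  set g := e wG with hg
  set U := g⁻¹ * T₀ * g with hU
  set d := (Y * U) ^ 3 with hd
  have hcc : c ∈ Subgroup.center Γ := by
    refine central_of_eq_one hc ?_
    have h := gword_jl_rel (w := [4, 4]) (by simp [tRels])
    rw [← map_ev σ hX hY hT, gword_cons, gword_one] at h
    exact h
  have hdc : d ∈ Subgroup.center Γ := by
    refine central_of_eq_one hc ?_
    have h := gword_jl_rel (w := (List.replicate 3 ([2] ++ conjW wG [4])).flatten) (by simp [tRels])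
    rw [← map_ev σ hX hY hT, gword_rep, gword_append, gword_one, gword_conjW, gword_one] at h
    exact h
  set h := e wI with hhdef
  have hhU : Commute h U := by
    have hW2 : Commute T₀ (e wW * e wW) := hTW.mul_right hTW
    rw [hhdef, wI, hec, hea, hU]
    show _ = _
    calc g⁻¹ * (e wW * e wW) * g * (g⁻¹ * T₀ * g) = g⁻¹ * ((e wW * e wW) * T₀) * g := by group
      _ = g⁻¹ * (T₀ * (e wW * e wW)) * g := by rw [hW2.eq]
      _ = g⁻¹ * T₀ * g * (g⁻¹ * (e wW * e wW) * g) := by group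
  have hhY : h * Y * h⁻¹ = Y⁻¹ := by
    have h' := ev_pair s hXs hYs T₀ (p := (wI ++ [2] ++ wInv wI, [3])) (by simp [pList])
    change e (wI ++ [2] ++ wInv wI) = e [3] at h'
    rw [hea, hea, hei, he, gword_one, gword_one] at h'
    exact h'
  have hd' : d = (Y⁻¹ * U) ^ 3 := by
    calc d = h * d * h⁻¹ := (center_conj hdc h).symm
      _ = ((h * Y * h⁻¹) * (h * U * h⁻¹)) ^ 3 := by
        rw [hd, ← conj_pow]; congr 1; group
      _ = (Y⁻¹ * U) ^ 3 := by rw [hhY, hhU.eq, mul_inv_cancel_right]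
  have hUU : U * U = c := by
    calc U * U = g⁻¹ * c * g := by rw [hU, hcdef]; group
      _ = c := by simpa using center_conj hcc g⁻¹
  have hd2 : d * d = c ^ 3 := by
    have hUi : U⁻¹ = c⁻¹ * U := by
      rw [← hUU]; group
    have hUY : (U * Y) ^ 3 = d := by
      calc (U * Y) ^ 3 = U * (Y * U) ^ 3 * U⁻¹ := by rw [← conj_pow]; congr 1; group
        _ = d := by rw [← hd, center_conj hdc U]
    have : d⁻¹ = c⁻¹ ^ 3 * d := by
      calc d⁻¹ = ((Y⁻¹ * U)⁻¹) ^ 3 := by rw [hd', inv_pow]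
        _ = (c⁻¹ * (U * Y)) ^ 3 := by rw [mul_inv_rev, inv_inv, hUi, mul_assoc]
        _ = c⁻¹ ^ 3 * d := by
          rw [Commute.mul_pow (center_comm (Subgroup.inv_mem _ hcc) _ : Commute c⁻¹ (U * Y)), hUY]
    calc d * d = d * (c ^ 3 * (c⁻¹ ^ 3 * d)) := by group
      _ = d * (c ^ 3 * d⁻¹) := by rw [← this]
      _ = c ^ 3 * (d * d⁻¹) := by
        rw [← mul_assoc, center_comm hdc (c ^ 3), mul_assoc]
      _ = c ^ 3 := by rw [mul_inv_cancel, mul_one]
  set z := c * d⁻¹ with hz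
  have hzc : z ∈ Subgroup.center Γ := Subgroup.mul_mem _ hcc (Subgroup.inv_mem _ hdc)
  have hcd : Commute c d⁻¹ := center_comm hcc d⁻¹
  have hzT : σ z = 1 := by
    have e1 : σ c = 1 := by
      have h := gword_jl_rel (w := [4, 4]) (by simp [tRels])
      rw [← map_ev σ hX hY hT, gword_cons, gword_one] at h
      exact h
    have e2 : σ d = 1 := by
      have h := gword_jl_rel (w := (List.replicate 3 ([2] ++ conjW wG [4])).flatten) (by simp [tRels])
      rw [← map_ev σ hX hY hT, gword_rep, gword_append, gword_one, gword_conjW, gword_one] at h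
      exact h
    rw [hz, map_mul, map_inv, e1, e2, inv_one, mul_one]
  refine ⟨z * T₀, by rw [map_mul, hzT, one_mul, hT], ?_, ?_⟩
  · calc z * T₀ * (z * T₀) = z * (T₀ * z) * T₀ := by group
      _ = z * (z * T₀) * T₀ := by rw [center_comm hzc T₀]
      _ = z ^ 2 * c := by simp only [hcdef, pow_two, mul_assoc]
      _ = c ^ 3 * (d * d)⁻¹ := by
        rw [hz, hcd.mul_pow, mul_assoc, ← center_comm hcc (d⁻¹ ^ 2)]; group
      _ = 1 := by rw [hd2, mul_inv_cancel]
  · have hgv : gword (lv X Y (z * T₀)) wG = g := ev_low_indep X Y _ T₀ (by decide)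
    have hY2 : gword (lv X Y (z * T₀)) (conjW wG [4]) = z * U := by
      rw [gword_conjW, gword_one, hgv, hU]
      show g⁻¹ * (z * T₀) * g = _
      calc g⁻¹ * (z * T₀) * g = (g⁻¹ * z) * T₀ * g := by group
        _ = (z * g⁻¹) * T₀ * g := by rw [center_comm hzc g⁻¹]
        _ = z * (g⁻¹ * T₀ * g) := by group
    rw [hY2, show Y * (z * U) = z * (Y * U) by
      rw [← mul_assoc, ← center_comm hzc Y, mul_assoc],
      Commute.mul_pow (center_comm hzc (Y * U) : Commute z (Y * U)), ← hd, hz, hcd.mul_pow]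
    calc c ^ 3 * d⁻¹ ^ 3 * d = c ^ 3 * (d * d)⁻¹ := by group
      _ = 1 := by rw [hd2, mul_inv_cancel]

/-- the conjugated relation squares to a central element of square one -/
theorem central_factor_inv {Γ : Type*} [Group Γ] {A T S k : Γ} (hT : T * T = 1) (hS : S * S = 1)
    (hTA : Commute T A) (hkA : k * A * k⁻¹ = A⁻¹) (hkT : Commute k T) (hkS : Commute k S)
    (hcen : (A * T * S) * (A * T * S) ∈ Subgroup.center Γ) :
    ((A * T * S) * (A * T * S)) * ((A * T * S) * (A * T * S)) = 1 := by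
  have hTi : T⁻¹ = T := inv_eq_of_mul_eq_one_right hT
  have hSi : S⁻¹ = S := inv_eq_of_mul_eq_one_right hS
  set Q := A * T * S with hQ
  have h1 : k * Q * k⁻¹ = A⁻¹ * T * S := by
    calc k * Q * k⁻¹ = (k * A * k⁻¹) * (k * T * k⁻¹) * (k * S * k⁻¹) := by rw [hQ]; group
      _ = A⁻¹ * T * S := by rw [hkA, hkT.eq, hkS.eq, mul_inv_cancel_right, mul_inv_cancel_right]
  have h2 : Q * Q = A⁻¹ * T * S * (A⁻¹ * T * S) := by
    calc Q * Q = k * (Q * Q) * k⁻¹ := (center_conj hcen k).symm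
      _ = (k * Q * k⁻¹) * (k * Q * k⁻¹) := by group
      _ = _ := by rw [h1]
  have h3 : (Q * Q)⁻¹ = Q * Q := by
    calc (Q * Q)⁻¹ = S⁻¹ * (Q * Q)⁻¹ * S⁻¹⁻¹ := (center_conj (Subgroup.inv_mem _ hcen) S⁻¹).symm
      _ = (S⁻¹ * S⁻¹) * (T⁻¹ * A⁻¹) * S⁻¹ * (T⁻¹ * A⁻¹) * S := by rw [hQ]; group
      _ = (S * S) * (T * A⁻¹) * S * (T * A⁻¹) * S := by rw [hSi, hTi]
      _ = A⁻¹ * T * S * (A⁻¹ * T * S) := by rw [hS, one_mul, hTA.inv_right.eq]; group
      _ = Q * Q := h2.symm
  calc Q * Q * (Q * Q) = Q * Q * (Q * Q)⁻¹ := by rw [h3]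
    _ = 1 := mul_inv_cancel _

/-- a square in a dihedral pair whose eleventh power is central -/
theorem eq_one_of_dihedral {Γ : Type*} [Group Γ] {Q C : Γ} (hC : C * C = 1)
    (hee : Q * Q ∈ Subgroup.center Γ) (hee2 : (Q * Q) * (Q * Q) = 1)
    (hmem : (Q * C) ^ 11 ∈ Subgroup.zpowers (Q * Q)) : Q * Q = 1 := by
  set ee := Q * Q with heedef
  have heei : ee⁻¹ = ee := inv_eq_of_mul_eq_one_right hee2
  set R := Q * C with hR
  have hQi : Q⁻¹ = ee * Q := by
    rw [← heei, heedef]; group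
  have hRi : R⁻¹ = ee * (C * Q) := by
    rw [hR, mul_inv_rev, inv_eq_of_mul_eq_one_right hC, hQi, ← mul_assoc, ← center_comm hee C,
      mul_assoc]
  have hconj : C * R * C⁻¹ = ee * R⁻¹ := by
    rw [hRi, ← mul_assoc ee ee, hee2, one_mul, hR]; group
  have hd : R ^ 11 ∈ Subgroup.center Γ := by
    obtain ⟨n, hn⟩ := Subgroup.mem_zpowers_iff.1 hmem
    rw [← hn]; exact Subgroup.zpow_mem _ hee n
  have h1 : R ^ 11 = ee ^ 11 * R⁻¹ ^ 11 := by
    rw [← Commute.mul_pow (center_comm hee R⁻¹ : Commute ee R⁻¹), ← hconj, conj_pow,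
      center_conj hd C]
  have h11 : ee ^ 11 = ee := by
    rw [show 11 = 2 * 5 + 1 from rfl, pow_succ, pow_mul, pow_two, hee2, one_pow, one_mul]
  have h2 : R ^ 11 * R ^ 11 = ee := by
    calc R ^ 11 * R ^ 11 = ee ^ 11 * R⁻¹ ^ 11 * R ^ 11 := by rw [← h1]
      _ = ee := by rw [inv_pow, inv_mul_cancel_right, h11]
  obtain ⟨n, hn⟩ := Subgroup.mem_zpowers_iff.1 hmem
  rw [← h2, ← hn, ← (Commute.refl ee).mul_zpow, hee2, one_zpow]

variable {Γ : Type} [Group Γ]

/-- a stem extension is generated by lifts of generators -/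
theorem closure_lifts_eq_top (σ : Γ →* Spor.J4) (hst : IsStemExtension σ) {X Y T : Γ}
    (hX : σ X = PresentedGroup.of Spor.J4.Gen.x) (hY : σ Y = PresentedGroup.of Spor.J4.Gen.y)
    (hT : σ T = PresentedGroup.of Spor.J4.Gen.t) :
    Subgroup.closure ({X, Y, T} : Set Γ) = ⊤ := by
  obtain ⟨-, hc, hk⟩ := hst
  set H := Subgroup.closure ({X, Y, T} : Set Γ) with hH
  have hmap : H.map σ = ⊤ := by
    rw [eq_top_iff, ← PresentedGroup.closure_range_of, Subgroup.closure_le]
    rintro _ ⟨a, rfl⟩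
    cases a
    · exact ⟨X, Subgroup.subset_closure (by simp), hX⟩
    · exact ⟨Y, Subgroup.subset_closure (by simp), hY⟩
    · exact ⟨T, Subgroup.subset_closure (by simp), hT⟩
  have hdec : ∀ a : Γ, ∃ h ∈ H, ∃ z ∈ Subgroup.center Γ, a = z * h ∧ σ z = 1 := fun a => by
    obtain ⟨h, hh, e⟩ := Subgroup.mem_map.1 (hmap.symm ▸ Subgroup.mem_top (σ a) : σ a ∈ H.map σ)
    have hz : σ (a * h⁻¹) = 1 := by rw [map_mul, map_inv, e, mul_inv_cancel]
    exact ⟨h, hh, a * h⁻¹, hc hz, (inv_mul_cancel_right a h).symm, hz⟩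
  have hcomm : commutator Γ ≤ H := by
    refine Subgroup.commutator_le.2 fun a _ b _ => ?_
    obtain ⟨g₁, hg₁, z₁, hz₁, rfl, -⟩ := hdec a
    obtain ⟨g₂, hg₂, z₂, hz₂, rfl, -⟩ := hdec b
    have c1 := center_comm hz₁
    have c2 := center_comm hz₂
    have : z₁ * g₁ * (z₂ * g₂) * (z₁ * g₁)⁻¹ * (z₂ * g₂)⁻¹ = g₁ * g₂ * g₁⁻¹ * g₂⁻¹ := by
      calc z₁ * g₁ * (z₂ * g₂) * (z₁ * g₁)⁻¹ * (z₂ * g₂)⁻¹
          = z₁ * (g₁ * z₂) * g₂ * g₁⁻¹ * z₁⁻¹ * g₂⁻¹ * z₂⁻¹ := by group
        _ = z₁ * (z₂ * g₁) * g₂ * g₁⁻¹ * z₁⁻¹ * g₂⁻¹ * z₂⁻¹ := by rw [c2 g₁]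
        _ = z₁ * (z₂ * (g₁ * g₂ * g₁⁻¹)) * z₁⁻¹ * g₂⁻¹ * z₂⁻¹ := by group
        _ = z₂ * (g₁ * g₂ * g₁⁻¹) * z₁ * z₁⁻¹ * g₂⁻¹ * z₂⁻¹ := by rw [c1]
        _ = z₂ * (g₁ * g₂ * g₁⁻¹ * g₂⁻¹) * z₂⁻¹ := by group
        _ = g₁ * g₂ * g₁⁻¹ * g₂⁻¹ := by rw [c2, mul_inv_cancel_right]
    rw [commutatorElement_def, this]
    exact H.mul_mem (H.mul_mem (H.mul_mem hg₁ hg₂) (H.inv_mem hg₁)) (H.inv_mem hg₂)
  rw [eq_top_iff]
  intro a _
  obtain ⟨g, hg, z, -, rfl, hz⟩ := hdec a
  exact H.mul_mem (hcomm (hk hz)) hg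

/-- every finite stem extension is trivial -/
theorem stem_ker_eq_bot [Finite Γ] (hinj : Function.Injective J4Rep112.rep) (σ : Γ →* Spor.J4)
    (hst : IsStemExtension σ) : σ.ker = ⊥ := by
  obtain ⟨hs, hc, hk⟩ := hst
  obtain ⟨s, hsec⟩ := exists_section σ hs hc
  set X := s px with hXs
  set Y := s py with hYs
  have hX : σ X = PresentedGroup.of Spor.J4.Gen.x :=
    (DFunLike.congr_fun hsec px).trans (PresentedGroup.toGroup.of _)
  have hY : σ Y = PresentedGroup.of Spor.J4.Gen.y :=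
    (DFunLike.congr_fun hsec py).trans (PresentedGroup.toGroup.of _)
  obtain ⟨T₀, hT₀⟩ := hs (PresentedGroup.of Spor.J4.Gen.t)
  obtain ⟨T, hT, hT2, h11⟩ := exists_good_lift hinj σ hc s hXs hYs hX hY hT₀
  obtain ⟨hTX, hTW⟩ := lift_commute hinj σ hc s hXs hYs hX hY hT
  set e := gword (lv X Y T) with he
  have hea : ∀ u v, e (u ++ v) = e u * e v := gword_append _
  have hei : ∀ u, e (wInv u) = (e u)⁻¹ := gword_wInv _ (lv_iv X Y T)
  have hec : ∀ g u, e (conjW g u) = (e g)⁻¹ * e u * e g := gword_conjW X Y T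
  have he1 : ∀ c, e [c] = lv X Y T c := gword_one _
  have hP : ∀ {p : List ℕ × List ℕ}, p ∈ pList → e p.1 = e p.2 := fun h => ev_pair s hXs hYs T h
  have hTk : ∀ l, Commute T (e (kexp l)) := fun l => by
    have hX' : T * X * T⁻¹ = 1 * X := by rw [one_mul, hTX.eq, mul_inv_cancel_right]
    have hW' : T * e wW * T⁻¹ = 1 * e wW := by rw [one_mul, hTW.eq, mul_inv_cancel_right]
    have := conj_kexp (Subgroup.one_mem _) (one_mul 1) hX' hW' l
    rw [one_pow, one_mul] at this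
    exact mul_inv_eq_iff_eq_mul.1 this
  set A := e wA with hA
  set S := e (conjW wH [4]) with hS
  set k := e (kexp Tab.kAK) with hk'
  set Q := e wQ with hQdef
  have hQ : Q = A * T * S := by
    rw [hQdef, wQ, hea, hea, he1]; rfl
  set ee := Q * Q with heedef
  have hee1 : σ ee = 1 := by
    have h := gword_jl_rel (w := wQ ++ wQ) (by simp [tRels])
    rw [← map_ev σ hX hY hT, gword_append] at h
    exact h
  have hee : ee ∈ Subgroup.center Γ := central_of_eq_one hc hee1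
  have hee2 : ee * ee = 1 := by
    have hSeq : S = (e wH)⁻¹ * T * e wH := by rw [hS, hec, he1]; rfl
    have hS2 : S * S = 1 := by
      calc S * S = (e wH)⁻¹ * (T * T) * e wH := by rw [hSeq]; group
        _ = 1 := by rw [hT2, mul_one, inv_mul_cancel]
    have hkA : k * A * k⁻¹ = A⁻¹ := by
      have h := hP (p := (kexp Tab.kAK ++ wA ++ wInv (kexp Tab.kAK), wInv wA)) (by simp [pList])
      rw [hea, hea, hei, hei] at h
      exact h
    have hTA : Commute T A := by
      rw [hA, hP (p := (wA, kexp Tab.aK)) (by simp [pList])]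
      exact hTk _
    have hkS : Commute k S := by
      have h := hP (p := (wH ++ kexp Tab.kAK ++ wInv wH, kexp Tab.kHK)) (by simp [pList])
      rw [hea, hea, hei] at h
      have c : Commute T (e wH * k * (e wH)⁻¹) := by rw [h]; exact hTk _
      rw [hSeq]
      set H := e wH
      show _ = _
      calc k * (H⁻¹ * T * H) = H⁻¹ * ((H * k * H⁻¹) * T) * H := by group
        _ = H⁻¹ * (T * (H * k * H⁻¹)) * H := by rw [c.eq]
        _ = H⁻¹ * T * H * k := by group
    have := central_factor_inv hT2 hS2 hTA hkA (hTk _).symm hkS (by rw [← hQ]; exact hee)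
    rwa [← hQ] at this
  let N := Subgroup.zpowers ee
  haveI hN : N.Normal := ⟨fun n hn g => by
    obtain ⟨i, rfl⟩ := Subgroup.mem_zpowers_iff.1 hn
    rw [center_conj (Subgroup.zpow_mem _ hee i) g]
    exact hn⟩
  let q := QuotientGroup.mk' N
  have hrels : ∀ w ∈ J4M24.Tab.relWords ++ tRels, q (e w) = 1 := by
    intro w hw
    rcases List.mem_append.1 hw with hw | hw
    · rw [he, ev_rel s hXs hYs T hw, map_one]
    · simp only [tRels, List.mem_cons, List.not_mem_nil, or_false] at hw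
      rcases hw with rfl | rfl | rfl | rfl | rfl
      · rw [show [4, 4] = [4] ++ [4] from rfl, hea, he1]
        show q (T * T) = 1
        rw [hT2, map_one]
      · rw [hea, hea, hea, hei, he1, he1]
        show q (T⁻¹ * (e wW)⁻¹ * T * e wW) = 1
        rw [show T⁻¹ * (e wW)⁻¹ * T * e wW = (e wW * T)⁻¹ * (T * e wW) by group, hTW.eq,
          inv_mul_cancel, map_one]
      · rw [show [5, 1, 4, 0] = [5] ++ [1] ++ [4] ++ [0] from rfl, hea, hea, hea, he1, he1, he1, he1]
        show q (T⁻¹ * X⁻¹ * T * X) = 1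
        rw [show T⁻¹ * X⁻¹ * T * X = (X * T)⁻¹ * (T * X) by group, hTX.eq, inv_mul_cancel, map_one]
      · rw [he, gword_rep, gword_append, gword_one]
        show q ((Y * e (conjW wG [4])) ^ 3) = 1
        rw [h11, map_one]
      · rw [hea]
        exact (QuotientGroup.eq_one_iff _).2 (Subgroup.mem_zpowers ee)
  have hlift : ∀ r ∈ Spor.coxRelators Spor.J4.edges ∪ {r | r ∈ Spor.J4.extra},
      FreeGroup.lift (fun a => q (lv X Y T (J4Rep112.enc a))) r = 1 := by
    intro r hr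
    rw [J4Rep112.edges_empty, Set.empty_union, Set.mem_ofPred_eq] at hr
    rw [map_eq_gword J4Rep112.enc J4Rep112.iv
      (FreeGroup.lift fun a => q (lv X Y T (J4Rep112.enc a))) (fun c => q (lv X Y T c))
      (fun a => FreeGroup.lift_apply_of)
      (fun a => by
        rw [FreeGroup.lift_apply_of, ← map_inv, ← lv_iv]; rfl) r, ← gword_map]
    refine hrels _ ?_
    rw [← words_eq]
    exact List.mem_map.2 ⟨r, hr, rfl⟩
  let ψ : Spor.J4 →* Γ ⧸ N := PresentedGroup.toGroup hlift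
  have hψ : ψ.comp σ = q := by
    refine MonoidHom.eq_of_eqOn_dense (closure_lifts_eq_top σ ⟨hs, hc, hk⟩ hX hY hT) ?_
    rintro a (rfl | rfl | rfl) <;>
      simp only [MonoidHom.comp_apply, hX, hY, hT, ψ, PresentedGroup.toGroup.of] <;> rfl
  have hkerN : σ.ker ≤ N := fun a ha => by
    have := DFunLike.congr_fun hψ a
    rw [MonoidHom.comp_apply, (ha : σ a = 1), map_one] at this
    exact (QuotientGroup.eq_one_iff a).1 this.symm
  have heeone : ee = 1 := by
    refine eq_one_of_dihedral (C := e wP) ?_ hee hee2 (hkerN ?_)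
    · have hX2 : X * X = 1 := by
        have h := ev_rel s hXs hYs T (w := [0, 0]) (by decide)
        rw [gword_cons, gword_one] at h
        exact h
      rw [wP, hec, he1]
      show (e Tab.cX)⁻¹ * X * e Tab.cX * ((e Tab.cX)⁻¹ * X * e Tab.cX) = 1
      calc (e Tab.cX)⁻¹ * X * e Tab.cX * ((e Tab.cX)⁻¹ * X * e Tab.cX)
          = (e Tab.cX)⁻¹ * (X * X) * e Tab.cX := by group
        _ = 1 := by rw [hX2, mul_one, inv_mul_cancel]
    · have h := gword_jl_eq hinj jDihedral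
      rw [← map_ev σ hX hY hT, ← map_ev σ hX hY hT, gword_rep, gword_append, gword_nil,
        map_one] at h
      exact h
  rw [eq_bot_iff]
  intro a ha
  have := hkerN ha
  rwa [show N = Subgroup.zpowers ee from rfl, heeone, Subgroup.zpowers_one_eq_bot] at this

/-- the Schur multiplier of the presented group is trivial -/
theorem hasMultiplier (hinj : Function.Injective J4Rep112.rep) [Finite Spor.J4] :
    HasCyclicSchurMultiplier Spor.J4 1 := by
  have hid : (MonoidHom.id Spor.J4).ker = ⊥ :=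
    (MonoidHom.ker_eq_bot_iff _).2 fun _ _ h => h
  refine ⟨⟨Spor.J4, inferInstance, inferInstance, MonoidHom.id _, ⟨Function.surjective_id, ?_, ?_⟩,
    ?_⟩, ?_⟩
  · rw [hid]; exact bot_le
  · rw [hid]; exact bot_le
  · rw [hid]
    haveI : Subsingleton (Multiplicative (ZMod 1)) :=
      inferInstanceAs (Subsingleton (ZMod 1))
    exact ⟨MulEquiv.mk (Equiv.ofUnique _ _) fun _ _ => Subsingleton.elim _ _⟩
  · intro Γ _ _ σ hst
    refine ⟨1, fun b => ⟨1, Subtype.ext ?_⟩⟩
    rw [map_one]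
    exact (Subgroup.mem_bot.1 (stem_ker_eq_bot hinj σ hst ▸ b.2)).symm

end CfsgLib.J4Cover26
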