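import Cfsg.Agent.J4M24.Iso
import Cfsg.Prelude.Def_KGroupFacts

/-!
Commutators of lifts in central extensions, and the lift of `M24` to a central extension of the
fourth Janko group.
-/

set_option autoImplicit false

namespace CfsgLib.J4Cover26

variable {Γ G : Type*} [Group Γ] [Group G] {σ : Γ →* G}

/-- elements with the same image differ by a central element -/
theorem eq_central_mul (hc : σ.ker ≤ Subgroup.center Γ) {p q : Γ} (h : σ p = σ q) :
    ∃ z ∈ Subgroup.center Γ, p = z * q :=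
  ⟨p * q⁻¹, hc (by rw [MonoidHom.mem_ker, map_mul, map_inv, h, mul_inv_cancel]), by group⟩

/-- an element with trivial image is central -/
theorem central_of_eq_one (hc : σ.ker ≤ Subgroup.center Γ) {p : Γ} (h : σ p = 1) :
    p ∈ Subgroup.center Γ := hc h

theorem center_comm {z : Γ} (hz : z ∈ Subgroup.center Γ) (g : Γ) : z * g = g * z :=
  (Subgroup.mem_center_iff.1 hz g).symm

theorem center_conj {z : Γ} (hz : z ∈ Subgroup.center Γ) (g : Γ) : g * z * g⁻¹ = z := by
  rw [← center_comm hz g, mul_inv_cancel_right]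

/-- conjugation by `p` moves `q` by a central element if the images commute -/
theorem exists_conj_eq (hc : σ.ker ≤ Subgroup.center Γ) {p q : Γ} (h : Commute (σ p) (σ q)) :
    ∃ z ∈ Subgroup.center Γ, p * q * p⁻¹ = z * q :=
  eq_central_mul hc (by rw [map_mul, map_mul, map_inv, h.eq, mul_inv_cancel_right])

/-- for an involution of the quotient the central factor squares to one -/
theorem conj_factor_sq (hc : σ.ker ≤ Subgroup.center Γ) {p q z : Γ} (h2 : σ p * σ p = 1)
    (hz : z ∈ Subgroup.center Γ) (h : p * q * p⁻¹ = z * q) : z * z = 1 := by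
  have hpp : p * p ∈ Subgroup.center Γ := central_of_eq_one hc (by rw [map_mul, h2])
  have e1 : p * p * q * (p * p)⁻¹ = q := by
    rw [center_comm hpp q, mul_inv_cancel_right]
  have e2 : p * p * q * (p * p)⁻¹ = z * (z * q) := by
    calc p * p * q * (p * p)⁻¹ = p * (p * q * p⁻¹) * p⁻¹ := by group
      _ = p * (z * q) * p⁻¹ := by rw [h]
      _ = (p * z * p⁻¹) * (p * q * p⁻¹) := by group
      _ = z * (z * q) := by rw [center_conj hz, h]
  have := e2.symm.trans e1
  rwa [← mul_assoc, mul_eq_right] at this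

/-- a lift of an involution commutes with squares of lifts of elements centralising it -/
theorem commute_sq (hc : σ.ker ≤ Subgroup.center Γ) {p q : Γ} (h2 : σ p * σ p = 1)
    (h : Commute (σ p) (σ q)) : Commute p (q * q) := by
  obtain ⟨z, hz, e⟩ := exists_conj_eq hc h
  have hzz := conj_factor_sq hc h2 hz e
  have : p * (q * q) * p⁻¹ = q * q := by
    calc p * (q * q) * p⁻¹ = (p * q * p⁻¹) * (p * q * p⁻¹) := by group
      _ = (z * q) * (z * q) := by rw [e]
      _ = z * z * (q * q) := by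
        rw [mul_assoc, ← mul_assoc q z q, ← center_comm hz q]; group
      _ = q * q := by rw [hzz, one_mul]
  exact (mul_inv_eq_iff_eq_mul.1 this)

/-- a lift of an involution commutes with the product of a lift and a conjugate of it -/
theorem commute_mul_conj (hc : σ.ker ≤ Subgroup.center Γ) {p r g : Γ} (h2 : σ p * σ p = 1)
    (hr : Commute (σ p) (σ r)) (hg : Commute (σ p) (σ g)) : Commute p (r * (g⁻¹ * r * g)) := by
  obtain ⟨z, hz, e⟩ := exists_conj_eq hc hr
  obtain ⟨w, hw, f⟩ := exists_conj_eq hc hg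
  have hzz := conj_factor_sq hc h2 hz e
  have f' : p * g⁻¹ * p⁻¹ = (w * g)⁻¹ := by rw [← f]; group
  have e' : p * (g⁻¹ * r * g) * p⁻¹ = z * (g⁻¹ * r * g) := by
    calc p * (g⁻¹ * r * g) * p⁻¹ = (p * g⁻¹ * p⁻¹) * (p * r * p⁻¹) * (p * g * p⁻¹) := by group
      _ = (w * g)⁻¹ * (z * r) * (w * g) := by rw [f', e, f]
      _ = g⁻¹ * (w⁻¹ * (z * r) * w) * g := by group
      _ = g⁻¹ * (z * r) * g := by
        rw [← center_comm (Subgroup.inv_mem _ hw) (z * r) |>.symm, mul_assoc (z * r), inv_mul_cancel,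
          mul_one]
      _ = z * (g⁻¹ * r * g) := by
        rw [← mul_assoc g⁻¹ z r, ← center_comm hz g⁻¹]; group
  have : p * (r * (g⁻¹ * r * g)) * p⁻¹ = r * (g⁻¹ * r * g) := by
    calc p * (r * (g⁻¹ * r * g)) * p⁻¹ = (p * r * p⁻¹) * (p * (g⁻¹ * r * g) * p⁻¹) := by group
      _ = (z * r) * (z * (g⁻¹ * r * g)) := by rw [e, e']
      _ = z * z * (r * (g⁻¹ * r * g)) := by
        rw [mul_assoc z r, ← mul_assoc r z, ← center_comm hz r]; group
      _ = r * (g⁻¹ * r * g) := by rw [hzz, one_mul]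
  exact (mul_inv_eq_iff_eq_mul.1 this)

open Cfsg CfsgLib.J4M24
open scoped commutatorElement

/-- the subgroup `M24` lifts to every central extension of the fourth Janko group -/
theorem exists_section {Γ : Type} [Group Γ] [Finite Γ] (σ : Γ →* Spor.J4)
    (hs : Function.Surjective σ) (hc : σ.ker ≤ Subgroup.center Γ) :
    ∃ s : P →* Γ, σ.comp s = incl := by
  let D : Subgroup Γ := incl.range.comap σ
  let φ : ↥D →* P :=
    (MonoidHom.ofInjective incl_injective).symm.toMonoidHom.comp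
      ((σ.comp D.subtype).codRestrict incl.range fun d => d.2)
  have hφ : ∀ d : ↥D, incl (φ d) = σ d := fun d => by
    have := congrArg Subtype.val ((MonoidHom.ofInjective incl_injective).apply_symm_apply
      (⟨σ (d : Γ), d.2⟩ : ↥incl.range))
    exact this
  have hφs : Function.Surjective φ := fun p => by
    obtain ⟨g, hg⟩ := hs (incl p)
    exact ⟨⟨g, ⟨p, hg.symm⟩⟩, incl_injective (by rw [hφ]; exact hg)⟩
  have hφk : φ.ker ≤ Subgroup.center ↥D := fun d hd => by
    have h1 : σ (d : Γ) = 1 := by rw [← hφ, hd, map_one]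
    rw [Subgroup.mem_center_iff]
    exact fun e => Subtype.ext (Subgroup.mem_center_iff.1 (hc h1) e)
  have hP : commutator P = ⊤ := by
    rw [← Abelianization.ker_of, hom_comm_eq_one (Abelianization.of (G := P))]
    exact MonoidHom.ker_one
  let E : Subgroup ↥D := commutator ↥D
  have hmap : E.map φ = ⊤ := by
    rw [show E = ⁅(⊤ : Subgroup ↥D), ⊤⁆ from rfl, Subgroup.map_commutator,
      Subgroup.map_top_of_surjective φ hφs]
    exact hP
  have hdec : ∀ a : ↥D, ∃ b ∈ E, ∃ z ∈ Subgroup.center ↥D, a = z * b := fun a => by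
    obtain ⟨b, hb, e⟩ := Subgroup.mem_map.1 (hmap.symm ▸ Subgroup.mem_top (φ a) : φ a ∈ E.map φ)
    exact ⟨b, hb, eq_central_mul hφk e.symm⟩
  have hperf : commutator ↥E = ⊤ := by
    have h1 : (commutator ↥E).map E.subtype = E := by
      refine le_antisymm (Subgroup.map_subtype_le _) ?_
      rw [show commutator ↥E = ⁅(⊤ : Subgroup ↥E), ⊤⁆ from rfl, Subgroup.map_commutator,
        ← MonoidHom.range_eq_map, E.range_subtype]
      refine Subgroup.commutator_le.2 fun a₁ _ a₂ _ => ?_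
      obtain ⟨b₁, hb₁, z₁, hz₁, rfl⟩ := hdec a₁
      obtain ⟨b₂, hb₂, z₂, hz₂, rfl⟩ := hdec a₂
      have : ⁅z₁ * b₁, z₂ * b₂⁆ = ⁅b₁, b₂⁆ := by
        have c1 := center_comm hz₁
        have c2 := center_comm hz₂
        have c2' := center_comm (Subgroup.inv_mem _ hz₂)
        simp only [commutatorElement_def]
        calc z₁ * b₁ * (z₂ * b₂) * (z₁ * b₁)⁻¹ * (z₂ * b₂)⁻¹
            = z₁ * (b₁ * z₂) * b₂ * b₁⁻¹ * z₁⁻¹ * b₂⁻¹ * z₂⁻¹ := by group
          _ = z₁ * (z₂ * b₁) * b₂ * b₁⁻¹ * z₁⁻¹ * b₂⁻¹ * z₂⁻¹ := by rw [c2 b₁]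
          _ = z₁ * (z₂ * (b₁ * b₂ * b₁⁻¹)) * z₁⁻¹ * b₂⁻¹ * z₂⁻¹ := by group
          _ = z₂ * (b₁ * b₂ * b₁⁻¹) * z₁ * z₁⁻¹ * b₂⁻¹ * z₂⁻¹ := by rw [c1]
          _ = z₂ * (b₁ * b₂ * b₁⁻¹ * b₂⁻¹) * z₂⁻¹ := by group
          _ = b₁ * b₂ * b₁⁻¹ * b₂⁻¹ := by rw [c2, mul_inv_cancel_right]
      rw [this]
      exact Subgroup.commutator_mem_commutator hb₁ hb₂
    apply Subgroup.map_injective E.subtype_injective
    rw [h1, ← MonoidHom.range_eq_map, E.range_subtype]
  let τ : ↥E →* ↥M24 := equivM24.toMonoidHom.comp (φ.comp E.subtype)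
  have hτs : Function.Surjective τ := by
    refine equivM24.surjective.comp fun p => ?_
    obtain ⟨b, hb, e⟩ := Subgroup.mem_map.1 (hmap.symm ▸ Subgroup.mem_top p : p ∈ E.map φ)
    exact ⟨⟨b, hb⟩, e⟩
  have hτk : τ.ker ≤ Subgroup.center ↥E := fun x hx => by
    have h1 : φ (x : ↥D) = 1 := equivM24.injective (hx.trans (map_one _).symm)
    rw [Subgroup.mem_center_iff]
    exact fun e => Subtype.ext (Subgroup.mem_center_iff.1 (hφk h1) (e : ↥D))
  obtain ⟨π, hπ⟩ := Mathieu.Multiplier.m24_trivial.2 ↥E τ ⟨hτs, hτk, hperf ▸ le_top⟩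
  have hinjτ : Function.Injective τ := by
    rw [← MonoidHom.ker_eq_bot_iff, Subgroup.eq_bot_iff_forall]
    intro n hn
    obtain ⟨a, ha⟩ := hπ ⟨n, hn⟩
    rw [Subsingleton.elim a 1, map_one] at ha
    exact (congrArg Subtype.val ha).symm
  let e := MulEquiv.ofBijective τ ⟨hinjτ, hτs⟩
  refine ⟨(D.subtype.comp E.subtype).comp (equivM24.trans e.symm).toMonoidHom, ?_⟩
  refine MonoidHom.ext fun p => ?_
  have h1 : τ (e.symm (equivM24 p)) = equivM24 p := e.apply_symm_apply _
  have h2 : φ ((e.symm (equivM24 p) : ↥E) : ↥D) = p := equivM24.injective h1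
  show σ _ = incl p
  exact (hφ _).symm.trans (congrArg incl h2)

end CfsgLib.J4Cover26
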