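import Cfsg.Agent.J4M24.Iso
import Cfsg.Agent.J4Rep112.Hom
import Cfsg.Agent.J4Cover26.Data

/-!
Identities between words in the fourth Janko group and in its subgroup `M24`, checked on the
permutations of 24 points and on the representation of dimension 112.
-/

set_option autoImplicit false
set_option maxRecDepth 100000

namespace CfsgLib.J4Cover26

open Cfsg CfsgLib.CosetEnum CfsgLib.J4M24

/-- values of the letters of three generators and their inverses -/
def lv {G : Type*} [Group G] (X Y T : G) : ℕ → G :=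
  signedVal fun q => if q = 0 then X else if q = 1 then Y else T

theorem lv_iv {G : Type*} [Group G] (X Y T : G) (c : ℕ) :
    lv X Y T (c ^^^ 1) = (lv X Y T c)⁻¹ := signedVal_iv _ c

theorem map_lv {G H : Type*} [Group G] [Group H] (f : G →* H) (X Y T : G) (c : ℕ) :
    f (lv X Y T c) = lv (f X) (f Y) (f T) c := by
  unfold lv signedVal
  simp only [apply_ite f, map_inv]

theorem map_gword_lv {G H : Type*} [Group G] [Group H] (f : G →* H) (X Y T : G) (w : List ℕ) :
    f (gword (lv X Y T) w) = gword (lv (f X) (f Y) (f T)) w := by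
  rw [gword_map]
  simp only [map_lv]

/-- the word `w` of the stabiliser of `t` -/
def wW : List ℕ := [2, 0, 2] ++ [0, 3, 0, 3] ++ [0, 2, 0, 2, 0, 2]

/-- words in the letters `x, w, w⁻¹` as words in the letters of `x, y` -/
def kexp (l : List ℕ) : List ℕ :=
  l.flatMap fun c => if c = 0 then [0] else if c = 1 then wW else wInv wW

/-- conjugate of a word -/
def conjW (g w : List ℕ) : List ℕ := wInv g ++ w ++ g

/-- the conjugator in the first long relator -/
def wG : List ℕ := [2, 0, 3, 0, 2, 0, 3, 0]

/-- the element in the second long relator -/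
def wA : List ℕ := (List.replicate 3 [2, 0, 2, 0, 2, 0, 2]).flatten

/-- the conjugator in the second long relator -/
def wH : List ℕ := [0, 2, 0, 2, 0, 2, 2, 0, 2, 0, 2, 0, 2, 0, 2, 0, 2, 0, 2, 2]

/-- the word of a sextet element -/
def wM : List ℕ := (List.replicate 3 ([2] ++ conjW Tab.gM [4])).flatten

/-- the odd element of the centraliser of the sextet element -/
def wK : List ℕ :=
  Tab.cU ++ kexp Tab.k0K ++ wInv Tab.cU ++ (Tab.sq1 ++ Tab.sq1) ++ (Tab.sq2 ++ Tab.sq2)

/-- the element inverting `y` -/
def wI : List ℕ := conjW wG (wW ++ wW)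

/-- the last long relator, before squaring -/
def wQ : List ℕ := wA ++ [4] ++ conjW wH [4]

/-- a conjugate of `x` -/
def wP : List ℕ := conjW Tab.cX [0]

/-- the square of the sextet word and the moved sextet -/
def wSl : List ℕ := Tab.ks ++ conjW Tab.cI wM ++ wInv Tab.ks

/-- two words agree as permutations of 24 points -/
def pEq (p : List ℕ × List ℕ) : Bool :=
  p.1.all (fun c => c.blt 4) && p.2.all (fun c => c.blt 4) && wTab p.1 == wTab p.2

/-- two words agree on 112 bit vectors -/
noncomputable def jEq (p : List ℕ × List ℕ) : Bool :=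
  p.1.all (fun c => c.blt 6) && p.2.all (fun c => c.blt 6) &&
    J4Rep112.fixesBasis (p.1 ++ wInv p.2)

theorem gword_gl_eq {p : List ℕ × List ℕ} (h : pEq p = true) : gword gl p.1 = gword gl p.2 := by
  simp only [pEq, Bool.and_eq_true, List.all_eq_true, Nat.blt, Nat.ble_eq, beq_iff_eq] at h
  apply phi_injective
  apply Subtype.ext
  rw [phi_gword, phi_gword]
  apply toTab_injective
  rw [toTab_gword _ h.1.1, toTab_gword _ h.1.2, h.2]

/-- the letters of the presented group -/
noncomputable def jl : ℕ → Spor.J4 :=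
  lv (PresentedGroup.of Spor.J4.Gen.x) (PresentedGroup.of Spor.J4.Gen.y)
    (PresentedGroup.of Spor.J4.Gen.t)

theorem rep_jl {c : ℕ} (hc : c < 6) : J4Rep112.rep (jl c) = J4Rep112.val c := by
  have hx : ∀ a, J4Rep112.rep (PresentedGroup.of a) = J4Rep112.val (J4Rep112.enc a) :=
    fun a => PresentedGroup.toGroup.of _
  interval_cases c <;> simp [jl, lv, signedVal, hx, J4Rep112.enc] <;> rfl

theorem gword_jl_eq (hinj : Function.Injective J4Rep112.rep) {p : List ℕ × List ℕ}
    (h : jEq p = true) : gword jl p.1 = gword jl p.2 := by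
  simp only [jEq, Bool.and_eq_true, List.all_eq_true, Nat.blt, Nat.ble_eq] at h
  have hall : ∀ c ∈ p.1 ++ wInv p.2, c < 6 := by
    intro c hc
    rcases List.mem_append.1 hc with h1 | h1
    · exact h.1.1 c h1
    · rw [wInv, List.mem_map] at h1
      obtain ⟨d, hd, rfl⟩ := h1
      exact J4Rep112.iv_lt (h.1.2 d (List.mem_reverse.1 hd))
  have key : gword jl (p.1 ++ wInv p.2) = 1 := by
    apply hinj
    rw [map_one, gword_map]
    refine (gword_congr _ J4Rep112.val fun c hc => rep_jl (hall c hc)).trans ?_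
    refine Equiv.ext fun v => Subtype.ext ?_
    rw [J4Rep112.gword_val _ hall, J4Rep112.act_eq_self h.2 v.2]
    rfl
  rw [gword_append, gword_wInv jl (lv_iv _ _ _), mul_inv_eq_one] at key
  exact key

/-- the identities in `M24` -/
def pList : List (List ℕ × List ℕ) :=
  [(wK, Tab.ks), (wW ++ wW ++ wW ++ wW, []), ((List.replicate 21 ([0] ++ wW)).flatten, []),
    (Tab.pw ++ kexp Tab.k0K, kexp Tab.k0K ++ Tab.pw), (Tab.ks ++ Tab.ks, []),
    (Tab.ks, conjW Tab.cF (Tab.sqF ++ Tab.sqF)), (wI ++ [2] ++ wInv wI, [3]),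
    (wA, kexp Tab.aK), (kexp Tab.kAK ++ wA ++ wInv (kexp Tab.kAK), wInv wA),
    (wH ++ kexp Tab.kAK ++ wInv wH, kexp Tab.kHK)]

theorem pList_ok : pList.all pEq = true := by decide +kernel

end CfsgLib.J4Cover26
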